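/-
Full subsystems over strongly closed central factors.
-/
import Cfsg.Agent.Fus.CompProd2

set_option autoImplicit false

namespace CL.Fus

open Cfsg Cfsg.FusionSystem CL.Grp CL.Loc

variable {Ω : Type*} [Group Ω] {S T P Q R U S₁ S₂ : Subgroup Ω} {F : FusionSystem S} {E : FusionSystem T} {p : ℕ}
  {f g : Ω → Ω} [Fact p.Prime] [Finite S]

/-- If `T` is strongly closed and `S = T C_S(T)`, the full subsystem over `T` is weakly normal. -/
theorem isWeaklyNormalIn_of_full (hS : IsPGroup p S) (hF : F.IsSaturated p) (hT : F.StronglyClosed T)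
    (h : ∀ s ∈ S, ∃ t ∈ T, ∀ x ∈ T, s * x * s⁻¹ = t * x * t⁻¹) (hE : ∀ P f, Mor E P f ↔ P ≤ T ∧ Mor F P f) :
    E.IsWeaklyNormalIn F p := by
  refine isWeaklyNormalIn_of hS hF (fun P hP => ?_) (isSubsystemOf_iff.2 fun P f hf => ((hE P f).1 hf).2) hT
    fun P Q f g hPQ hQ hf hfQ hg => ?_
  · obtain ⟨Q, hQ, hn⟩ := exists_isConj_fullyNormalized F (hP.trans hT.1)
    have hQT := StronglyClosed.le_of_isConj hT hP hQ
    obtain ⟨f, hf, rfl⟩ := isConj_iff.1 hQ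
    refine ⟨_, ((hE P f).2 ⟨hP, hf⟩).isConj, isFullyAutomized_iff.2 ⟨hQT, ?_⟩, isReceptive_iff.2
      ⟨hQT, fun R g hg e => ?_⟩⟩
    · have h1 := sylIn_of_fullyNormalized hS hF hn
      have h2 : autInducedBy S (img f P) ≤ autInducedBy T (img f P) := fun α hα => by
        obtain ⟨s, hs, e⟩ := mem_autInducedBy.1 hα
        obtain ⟨t, ht, e'⟩ := h s hs
        exact mem_autInducedBy.2 ⟨t, ht, fun x hx => by rw [e x hx, e' x (hQT hx)]⟩
      rw [le_antisymm h2 (autInducedBy_mono hT.1 _)] at h1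
      exact h1.mono (autInducedBy_le_autGroup E hQT) fun α hα =>
        (mem_autGroup_iff hn.1).2 ((hE _ _).1 (mor_autFun hQT hα)).2
    · obtain ⟨k, hk, ek⟩ := ((hE _ _).1 hg).2.extend' (receptive_of_fullyNormalized hS hF hn) e
        (R := extenderF T R g) fun a ⟨h1, h2, b, hb, h3⟩ => ⟨hT.1 h1, h2, b, hT.1 hb, h3⟩
      exact ⟨k, (hE _ _).2 ⟨(extenderF_le_normalizerIn T R g).trans (normalizerIn_le T R), hk.mono le_sup_right⟩, ek⟩
  · obtain ⟨k, hk, ek⟩ := strongInv_self F P Q f g hPQ hg.le ((hE P f).1 hf).2 hfQ hg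
    exact ⟨k, (hE _ _).2 ⟨img_le_iff.2 fun x hx => hg.mem_of_stronglyClosed hT (hPQ hx) (hQ (hPQ hx)), hk⟩, ek⟩

theorem direct_factors (hS : IsPGroup p S) (hF : F.IsSaturated p) (hprod : IsInternalDirectProduct S₁ S₂ S)
    (h₁ : F.StronglyClosed S₁) (h₂ : F.StronglyClosed S₂) {R R' : FusionSystem S₁}
    (hR : ∀ P f, Mor R P f ↔ P ≤ S₁ ∧ Mor F P f) (hR' : ∀ P f, Mor R' P f ↔ P ≤ S₁ ∧ NMor F S₂ ⊥ P f) :
    R.IsWeaklyNormalIn F p ∧ R'.IsNormalIn F p ∧ R'.IsNormalIn R p := by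
  obtain ⟨-, -, hc, hi, hs⟩ := hprod
  have h0 : ∀ s ∈ S, ∃ t ∈ S₁, ∀ x ∈ S₁, s * x * s⁻¹ = t * x * t⁻¹ := fun s hs' => by
    obtain ⟨a, ha, b, hb, rfl⟩ := (mem_sup_of_comm hc).1 (hs.ge hs')
    exact ⟨a, ha, fun x hx => by rw [mul_assoc a b x, ← hc x hx b hb]; group⟩
  have h3 : S₁ ≤ centralizerIn S S₂ := fun x hx => ⟨h₁.1 hx, fun y hy => (hc x hx y hy).symm⟩
  have hw := isWeaklyNormalIn_of_full hS hF h₁ h0 hR
  have hC := isCentralizerSystem_centralizerSystem F h₂.1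
  have hCF := IsCentralizerSystem.isSubsystemOf hC
  have hw' := isWeaklyNormalIn_of_full (E := R') (hS.to_le (centralizerIn_le S S₂)) (IsCentralizerSystem.isSaturated hS hF
    (WeaklyClosed.isFullyCentralized (StronglyClosed.weaklyClosed h₂)) hC) (StronglyClosed.of_subsystem' h₁ hCF h3)
    (fun s hs => h0 s hs.1) fun P f => by rw [hR', isCentralizerSystem_iff.1 hC]
  have hw'' : R'.IsWeaklyNormalIn F p := isWeaklyNormalIn_of hS hF hw'.1 (fun P => (hw'.2.2.1 P).trans (hCF P)) h₁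
    fun P Q f g hPQ hQ hf hfQ hg => by
      obtain ⟨-, a, ha, e1, e2⟩ := nMor_bot_iff.1 ((hR' _ _).1 hf).2
      obtain ⟨b, hb, e3⟩ := hg.exists_sup_stronglyClosed hS hF h₂
      have e4 : ∀ x ∈ Q, b x = g x := fun x hx => (inv_mul_eq_one.1 (Subgroup.mem_bot.1 (hi.le ⟨S₁.mul_mem
        (S₁.inv_mem (hg.mem_of_stronglyClosed h₁ hx (hQ hx)))
        (hb.mem_of_stronglyClosed h₁ (Subgroup.mem_sup_left hx) (hQ hx)), e3 x hx⟩))).symm
      have h4 := sup_le_sup_right hPQ S₂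
      obtain ⟨k, hk, ek⟩ := hb.exists_conj h4 ha (img_le_iff.1 (by
        rw [ha.homOn.img_sup, img_congr e1, img_eq_self_of_fix e2]
        exact sup_le_sup_right (img_le_iff.2 hfQ) _))
      have e5 := StronglyClosed.img_eq h₂ hb le_sup_right
      rw [(hb.homOn.mono h4).img_sup, e5, img_congr fun x hx => e4 x (hPQ hx)] at hk
      have h5 : img g P ≤ S₁ := img_le_iff.2 fun x hx => hg.mem_of_stronglyClosed h₁ (hPQ hx) (hQ (hPQ hx))
      refine ⟨k, (hR' _ _).2 ⟨h5, nMor_bot_iff.2 ⟨h5.trans h3, k, hk, fun _ _ => rfl, fun y hy => ?_⟩⟩,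
        fun x hx => by rw [← e4 x (hPQ hx), ek x (Subgroup.mem_sup_left hx), e1 x hx, e4 _ (hfQ x hx)]⟩
      obtain ⟨x, hx, rfl⟩ := (hb.mem_img' le_sup_right).1 (e5.ge hy)
      rw [ek x (Subgroup.mem_sup_right hx), e2 x hx]
  have := finite_of_le h₁.1
  refine ⟨hw, isNormalIn_iff_mor.2 ⟨hw'', extCond_of fun a ha => ?_⟩, isNormalIn_of_weaklyNormal_top
    (IsWeaklyNormalIn.of_between (hS.to_le h₁.1) hw'' hw.1 (isSubsystemOf_iff.2 fun P f hf =>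
      (hR P f).2 ⟨hf.le, ((hR' P f).1 hf).2.mor⟩) hw.2.2.1)⟩
  obtain ⟨-, b, hb, e1, e2⟩ := nMor_bot_iff.1 ((hR' _ _).1 ha).2
  refine ⟨b, hb.mono ((sup_le h₁.1 (centralizerIn_le S S₁)).trans hs.ge), e1, fun c hc' => ?_⟩
  obtain ⟨x, hx, y, hy, rfl⟩ := (mem_sup_of_comm hc).1 (hs.ge hc'.1)
  rw [hb.homOn.map_mul (Subgroup.mem_sup_left hx) (Subgroup.mem_sup_right hy), e2 y hy, e1 x hx]
  have h4 := S₁.mul_mem (S₁.inv_mem hx) (ha.mem hx)
  rwa [show (x * y)⁻¹ * (a x * y) = y⁻¹ * (x⁻¹ * a x * y) by group, hc _ h4 y hy, inv_mul_cancel_left]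

end CL.Fus
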