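import Cfsg.Agent.Fus.SimpleAlt

/-! The `p`-fusion systems of alternating groups, `p` odd, have no proper normal subsystem of index prime to `p`. -/

set_option autoImplicit false
open Cfsg Cfsg.FusionSystem

namespace CL.Fus

section general
variable {Ω : Type*} [Group Ω] {p : ℕ} {H T Q A : Subgroup Ω}

/-- The elements of `N(A)` that induce on `A` a map of every normal subsystem of `F_T(H)` over `T`. -/
def goodAt (p : ℕ) (hTH : T ≤ H) (hA : A ≤ T) : Subgroup Ω where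
  carrier := {g | g ∈ Subgroup.normalizer (A : Set Ω) ∧ ∀ D : FusionSystem T,
    D.IsNormalIn (fusionSystemOfSubgroup H T hTH) p → Mor D A (fun x => g * x * g⁻¹)}
  one_mem' := ⟨Subgroup.one_mem _, fun D _ => (mor_id D hA).congr fun x _ => by simp⟩
  mul_mem' := by
    rintro a b ⟨ha, ha'⟩ ⟨hb, hb'⟩
    exact ⟨Subgroup.mul_mem _ ha hb, fun D hD => ((hb' D hD).comp (ha' D hD)
      fun x hx => conj_mem_of_mem_normalizer hb hx).congr fun x _ => by group⟩
  inv_mem' := by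
    rintro a ⟨ha, ha'⟩
    refine ⟨Subgroup.inv_mem _ ha, fun D hD => ?_⟩
    have := (ha' D hD).inv (g := fun x => a⁻¹ * x * a⁻¹⁻¹) fun x _ => by group
    rwa [img_conj_of_mem_normalizer ha] at this

theorem mem_goodAt_of_le {hTH : T ≤ H} {hA : A ≤ T} (hQ : Q ≤ A) {g : Ω} (hg : g ∈ goodAt p hTH hA)
    (hgQ : g ∈ Subgroup.normalizer (Q : Set Ω)) : g ∈ goodAt p hTH (hQ.trans hA) :=
  ⟨hgQ, fun D hD => (hg.2 D hD).mono hQ⟩

theorem conj_mem_pCl [hH : H.Normal] {u x : Ω} (hu : u ∈ Subgroup.normalizer (A : Set Ω))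
    (hx : x ∈ pCl p (normalizerIn H A)) : u * x * u⁻¹ ∈ pCl p (normalizerIn H A) := by
  induction hx using Subgroup.closure_induction with
  | mem a ha =>
    obtain ⟨ha, k, hk⟩ := ha
    exact mem_pCl ⟨hH.conj_mem a ha.1 u, Subgroup.mul_mem _ (Subgroup.mul_mem _ hu ha.2) (Subgroup.inv_mem _ hu)⟩
      (k := k) (by rw [conj_pow, hk, mul_one, mul_inv_cancel])
  | one => rw [mul_one, mul_inv_cancel]; exact Subgroup.one_mem _
  | mul a b _ _ ha hb => rw [← conj_mul]; exact Subgroup.mul_mem _ ha hb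
  | inv a _ ha => rw [← conj_inv]; exact Subgroup.inv_mem _ ha

variable [Fact p.Prime] [Finite H]

theorem pCl_le_goodAt (hT : SylIn p T H) (hQ : Q ≤ T) : pCl p (normalizerIn H Q) ≤ goodAt p hT.le hQ := by
  have := hT.finite
  refine (Subgroup.closure_le _).2 ?_
  rintro a ⟨ha, k, hk⟩
  refine ⟨(mem_normalizerIn.1 ha).2, fun D hD => ?_⟩
  have hα : normHom H Q ⟨a, ha⟩ ∈ (fusionSystemOfSubgroup H T hT.le).autGroup Q := by
    rw [GS.autGroup_eq hQ, ← range_normHom]; exact ⟨_, rfl⟩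
  have := StrongInv.mem_autGroup_of_pElement hT.isPGroup (GS.isSaturated hT) (IsInvariantIn.strongInv hD.1.2.2) hQ hα
    (k := k) (by rw [← map_pow, show (⟨a, ha⟩ : normalizerIn H Q) ^ p ^ k = 1 from Subtype.ext hk, map_one])
  exact (mor_autFun hQ this).congr fun x hx => autFun_normHom _ hx

theorem mem_goodAt_of_centric (hT : SylIn p T H) (hA : A ≤ T) (hQA : Q ≤ A) (hQ : PCen p H Q) {g : Ω}
    (hg : g ∈ goodAt p hT.le (hQA.trans hA)) (hgH : g ∈ H) (hgA : g ∈ Subgroup.normalizer (A : Set Ω)) :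
    g ∈ goodAt p hT.le hA := by
  have := hT.finite
  exact ⟨hgA, fun D hD => Mor.of_centric_restrict hT.isPGroup (GS.isSaturated hT) hD.1.1 hD.1.2.2.1
    ((mor_ofSubgroup_iff hT.le).2 ⟨hA, fun x hx => hA (conj_mem_of_mem_normalizer hgA hx), g, hgH, fun _ _ => rfl⟩)
    hQA (hQ.isCentric hT.le hT.isPGroup (hQA.trans hA)) (hg.2 D hD)⟩

end general

namespace Alt
open Equiv Equiv.Perm CL.Known Finset

variable {p : ℕ} [hp : Fact p.Prime] {Λ Ω : Type*} {ι : ZMod p × Λ ↪ Ω}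

omit hp in
theorem perm_ext {g h : Perm Ω} (h1 : ∀ a l, g (ι (a, l)) = h (ι (a, l))) (h2 : ∀ x, x ∉ Set.range ι → g x = h x) :
    g = h := Equiv.ext fun x => by
  by_cases hx : x ∈ Set.range ι
  · obtain ⟨⟨a, l⟩, rfl⟩ := hx
    exact h1 a l
  · exact h2 x hx

theorem zmod_induction {P : ZMod p → Prop} (h0 : P 0) (h : ∀ a, P a → P (a + 1)) (a : ZMod p) : P a := by
  obtain ⟨k, rfl⟩ := ZMod.natCast_zmod_surjective a
  induction k with
  | zero => rwa [Nat.cast_zero]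
  | succ k ih => rw [Nat.cast_succ]; exact h _ ih

variable (ι) in
/-- The diagonal permutations `(a, l) ↦ (μ l * a, l)`. -/
noncomputable def mon : (Λ → (ZMod p)ˣ) →* Perm Ω := (viaEmbeddingHom ι).comp
  { toFun := fun μ => Equiv.prodCongrLeft fun l => (μ l).mulLeft
    map_one' := Equiv.ext fun x => by simp [prodCongrLeft]
    map_mul' := fun μ ν => Equiv.ext fun x => Prod.ext (mul_assoc (μ x.2 : ZMod p) _ _) rfl }

theorem mon_apply (μ : Λ → (ZMod p)ˣ) (a : ZMod p) (l : Λ) : mon ι μ (ι (a, l)) = ι (μ l * a, l) :=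
  viaEmbedding_apply _ _ _

theorem mon_apply_of_notMem (μ : Λ → (ZMod p)ˣ) {x : Ω} (hx : x ∉ Set.range ι) : mon ι μ x = x :=
  viaEmbedding_apply_of_notMem _ _ _ hx

theorem mon_conj_base (μ : Λ → (ZMod p)ˣ) (f : Λ → ZMod p) :
    mon ι μ * wE ι f 1 * (mon ι μ)⁻¹ = wE ι (fun l => μ l * f l) 1 :=
  mul_inv_eq_iff_eq_mul.2 (perm_ext (ι := ι) (fun a l => by simp [mon_apply, wE_apply, mul_add])
    fun x hx => by simp [mon_apply_of_notMem, wE_apply_of_notMem, hx])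

theorem top_conj_mon (μ : Λ → (ZMod p)ˣ) (σ : Perm Λ) :
    wE ι 0 σ * mon ι μ * (wE ι 0 σ)⁻¹ = mon ι (μ ∘ ⇑σ⁻¹) :=
  mul_inv_eq_iff_eq_mul.2 (perm_ext (ι := ι) (fun a l => by simp [mon_apply, wE_apply])
    fun x hx => by simp [mon_apply_of_notMem, wE_apply_of_notMem, hx])

theorem exists_of_moved {f : Λ → ZMod p} {x : Ω} (h : wE ι f 1 x ≠ x) : ∃ a l, f l ≠ 0 ∧ x = ι (a, l) := by
  obtain ⟨⟨a, l⟩, rfl⟩ : x ∈ Set.range ι := by_contra fun hx => h (wE_apply_of_notMem _ _ _ hx)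
  exact ⟨a, l, fun e => h (by simp [wE_apply, e]), rfl⟩

theorem fix_of_comm [DecidableEq Λ] {f : Λ → ZMod p} {σ : Perm Λ} {l : Λ}
    (h : wE ι f σ * wE ι (Pi.single l 1) 1 = wE ι (Pi.single l 1) 1 * wE ι f σ) : σ l = l := by
  rw [wE_mul, wE_mul, wE_inj] at h
  have := congrFun h.1 l
  by_contra e
  simp [e] at this

variable [Finite Ω]

theorem mem_normalizer_base {g : Perm Ω} (h : ∀ f, ∃ f', g * wE ι f 1 * g⁻¹ = wE ι f' 1) :
    g ∈ Subgroup.normalizer (WR ι ⊥ : Set (Perm Ω)) := Subgroup.mem_normalizer_fintype <| by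
  rintro _ ⟨f, σ, rfl, rfl⟩
  obtain ⟨f', e⟩ := h f
  exact e ▸ wE_mem_WR.2 rfl

theorem wE_mem_normalizer (f : Λ → ZMod p) (σ : Perm Λ) : wE ι f σ ∈ Subgroup.normalizer (WR ι ⊥ : Set (Perm Ω)) :=
  mem_normalizer_base fun _ => ⟨_, wE_conj_base ..⟩

theorem mon_mem_normalizer (μ : Λ → (ZMod p)ˣ) : mon ι μ ∈ Subgroup.normalizer (WR ι ⊥ : Set (Perm Ω)) :=
  mem_normalizer_base fun _ => ⟨_, mon_conj_base ..⟩

omit hp in
theorem fix_out (hr : Subsingleton {x // x ∉ Set.range ι}) {g : Perm Ω} (h : ∀ z, g (ι z) ∈ Set.range ι) (x : Ω)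
    (hx : x ∉ Set.range ι) : g x = x := by
  have h1 := perm_symm_mapsTo_of_mapsTo g (s := Set.range ι) (by rintro _ ⟨z, rfl⟩; exact h z)
  exact congrArg Subtype.val (hr.elim ⟨g x, fun e => hx (by simpa using h1 e)⟩ ⟨x, hx⟩)

theorem exists_wE_of_comm [Finite Λ] (hr : Subsingleton {x // x ∉ Set.range ι}) {g : Perm Ω}
    (hg : g * wE ι (fun _ => 1) 1 = wE ι (fun _ => 1) 1 * g) : ∃ f σ, g = wE ι f σ := by
  have h1 : ∀ z, g (ι z) ∈ Set.range ι := fun ⟨a, l⟩ => by_contra fun e => by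
    have := congrArg (· (ι (a, l))) hg
    simp [wE_apply, wE_apply_of_notMem _ _ _ e] at this
  obtain ⟨f, σ, h⟩ := exists_wE_of_commute ι 1 (fun a => ⟨a.val, by simp⟩) hg h1
  exact ⟨f, σ, eq_wE ι h (fix_out hr h1)⟩

theorem pCen_base [Finite Λ] (hr : Subsingleton {x // x ∉ Set.range ι}) (H : Subgroup (Perm Ω)) :
    PCen p H (WR ι ⊥) := by
  classical
  intro c _ _ h
  obtain ⟨f, σ, rfl⟩ := exists_wE_of_comm hr (h _ (wE_mem_WR.2 rfl))
  exact wE_mem_WR.2 (Equiv.ext fun l => fix_of_comm (h _ (wE_mem_WR.2 rfl)))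

theorem exists_mon [Fintype Λ] [DecidableEq Λ] (hr : Subsingleton {x // x ∉ Set.range ι}) {T : Subgroup (Perm Ω)}
    (h1 : WR ι ⊥ ≤ T) (h2 : T ≤ WR ι ⊤) {g : Perm Ω} (hg : g ∈ Subgroup.normalizer (T : Set (Perm Ω))) :
    ∃ f σ μ, g = wE ι f σ * mon ι μ := by
  classical
  have := Fintype.ofFinite Ω
  have key : ∀ l, ∃ (m : Λ) (μ : (ZMod p)ˣ) (b : ZMod p), ∀ a, g (ι (a, l)) = ι (μ * a + b, m) := by
    intro l
    obtain ⟨f, σ, -, e⟩ := h2 (conj_mem_of_mem_normalizer hg (h1 (wE_mem_WR.2 rfl : wE ι (Pi.single l 1) 1 ∈ _)))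
    have h3 := card_support_conj (σ := g) (τ := wE ι (Pi.single l 1) 1)
    rw [e, card_support_wE, card_support_wE, mul_right_inj' hp.out.ne_zero] at h3
    obtain ⟨m, hm⟩ := card_eq_one.1 (h3.trans (card_eq_one.2 ⟨l, by ext x; by_cases e : x = l <;> simp [e]⟩))
    have h4 : ∀ x, f x ≠ 0 ∨ σ x ≠ x ↔ x = m := fun x => by simpa using Finset.ext_iff.1 hm x
    obtain rfl : σ = 1 := Equiv.ext fun x => by_contra fun h =>
      h (((h4 _).1 (Or.inr fun e => h (σ.injective e))).trans ((h4 x).1 (Or.inr h)).symm)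
    rw [mul_inv_eq_iff_eq_mul] at e
    have h5 : ∀ a, g (ι (a + 1, l)) = wE ι f 1 (g (ι (a, l))) := fun a => by
      simpa [wE_apply] using congrArg (· (ι (a, l))) e
    obtain ⟨b, m', hm', e0⟩ := exists_of_moved (ι := ι) (f := f) (x := g (ι (0, l))) (by rw [← h5]; simp)
    refine ⟨m', Units.mk0 _ hm', b, zmod_induction (by simpa using e0) fun a ha => ?_⟩
    rw [h5, ha, wE_apply, mul_add, mul_one, add_right_comm]; rfl
  choose τ μ b h using key
  have hτ : Function.Injective τ := fun l m e => by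
    have h3 := h l (-((μ l)⁻¹ * b l))
    have h4 := h m (-((μ m)⁻¹ * b m))
    simp only [mul_neg, Units.mul_inv_cancel_left, neg_add_cancel] at h3 h4
    rw [e, ← h4] at h3
    exact congrArg Prod.snd (ι.injective (g.injective h3))
  refine ⟨b, Equiv.ofBijective τ (Finite.injective_iff_bijective.1 hτ), μ, perm_ext (ι := ι) (fun a l => ?_)
    fun x hx => ?_⟩
  · rw [h, Perm.mul_apply, mon_apply, wE_apply]; rfl
  · rw [fix_out hr (fun z => ⟨_, (h z.2 z.1).symm⟩) x hx, Perm.mul_apply, mon_apply_of_notMem _ hx,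
      wE_apply_of_notMem _ _ _ hx]

section K
set_option linter.unusedSectionVars false
variable [Fintype Ω] [DecidableEq Ω] [Fintype Λ] [DecidableEq Λ]

variable (ι) in
/-- The subgroup generated by the `p`-elements of the normalizer of the base group in the alternating group. -/
abbrev KK : Subgroup (Perm Ω) := pCl p (normalizerIn (alternatingGroup Ω) (WR ι ⊥))

theorem mem_KK (ho : Odd p) {g : Perm Ω} (h : g ∈ Subgroup.normalizer (WR ι ⊥ : Set (Perm Ω))) (hg : g ^ p = 1) :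
    g ∈ KK ι := mem_pCl ⟨mem_alt_of_pow ho hg, h⟩ (k := 1) (by rwa [pow_one])

theorem cyc_pow (ε : ZMod p ↪ Λ) : (Equiv.addRight (1 : ZMod p)).viaEmbedding ε ^ p = 1 := by
  rw [← viaEmbeddingHom_apply, ← map_pow, Equiv.nsmul_addRight]
  simp

theorem top_mem_KK (ho : Odd p) (ε : ZMod p ↪ Λ) {σ : Perm Λ} (hσ : σ ∈ alternatingGroup Λ) : wE ι 0 σ ∈ KK ι := by
  have hN : ((KK ι).comap (wTopHom ι)).Normal := ⟨fun x hx g => by
    rw [Subgroup.mem_comap, map_mul, map_mul, map_inv]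
    exact conj_mem_pCl (wE_mem_normalizer 0 g) hx⟩
  have hγ : (Equiv.addRight (1 : ZMod p)).viaEmbedding ε ∈ (KK ι).comap (wTopHom ι) :=
    mem_KK ho (wE_mem_normalizer 0 _) (by rw [← map_pow, cyc_pow, map_one])
  have h2 : (1 + 1 : ZMod p) ≠ 0 := fun e => by
    have := (ZMod.natCast_eq_zero_iff 2 p).1 (by rw [← e]; norm_num)
    rw [(Nat.prime_dvd_prime_iff_eq hp.out Nat.prime_two).1 this] at ho
    exact absurd ho (by decide)
  have h3 : swap (ε 1) (ε (1 + 1)) * swap (ε 1) (ε 0) ∈ (KK ι).comap (wTopHom ι) := by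
    have := Subgroup.mul_mem _ hγ (hN.conj_mem _ (Subgroup.inv_mem _ hγ) (swap (ε 0) (ε 1)))
    rw [swap_inv, ← mul_assoc, ← mul_assoc, ← swap_apply_apply] at this
    simpa [viaEmbedding_apply, swap_comm (ε 0)] using this
  have h4 := isThreeCycle_swap_mul_swap_same (a := ε 1) (b := ε (1 + 1)) (c := ε 0) (by simp) (by simp) (by simpa)
  refine (?_ : alternatingGroup Λ ≤ (KK ι).comap (wTopHom ι)) hσ
  rw [← closure_three_cycles_eq_alternating, Subgroup.closure_le]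
  intro τ hτ
  obtain ⟨c, rfl⟩ := _root_.isConj_iff.1 (isConj_iff_cycleType_eq.2 (h4.cycleType.trans (IsThreeCycle.cycleType hτ).symm))
  exact hN.conj_mem _ h3 c

theorem mon_mem_KK (ho : Odd p) (ε : ZMod p ↪ Λ) {μ : Λ → (ZMod p)ˣ} (hμ : ∏ l, μ l = 1) : mon ι μ ∈ KK ι := by
  have h3 : 2 < Fintype.card Λ := by
    have h1 := Fintype.card_le_of_embedding ε
    have h2 := hp.out.two_le
    obtain ⟨k, rfl⟩ := ho
    rw [ZMod.card] at h1
    omega
  have key : ∀ l u, mon ι (Pi.mulSingle l u) * (mon ι (Pi.mulSingle (ε 0) u))⁻¹ ∈ KK ι := fun l u => by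
    obtain ⟨σ, hσ, e⟩ : ∃ σ ∈ alternatingGroup Λ, σ (ε 0) = l := by
      by_cases e : ε 0 = l
      · exact ⟨1, Subgroup.one_mem _, e⟩
      · obtain ⟨m, -, hm⟩ := exists_mem_notMem_of_card_lt_card (s := {ε 0, l}) (t := univ)
          (card_le_two.trans_lt h3)
        simp only [Finset.mem_insert, Finset.mem_singleton, not_or] at hm
        exact ⟨swap m l * swap (ε 0) m, by simp [mem_alternatingGroup, hm.2, Ne.symm hm.1], by simp⟩
    have h1 := top_mem_KK (ι := ι) ho ε hσ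
    have := Subgroup.mul_mem _ h1 (conj_mem_pCl (mon_mem_normalizer (Pi.mulSingle (ε 0) u)) (Subgroup.inv_mem _ h1))
    rw [← mul_assoc, ← mul_assoc, top_conj_mon] at this
    convert this using 3
    ext x
    simp [Pi.mulSingle_apply, ← e, Equiv.symm_apply_eq]
  have h1 : ∏ l, Pi.mulSingle l (μ l) * (Pi.mulSingle (ε 0) (μ l))⁻¹ ∈ (KK ι).comap (mon ι) :=
    prod_mem fun l _ => by rw [Subgroup.mem_comap, map_mul, map_inv]; exact key l _
  have h2 : ∏ l, Pi.mulSingle (M := fun _ => (ZMod p)ˣ) (ε 0) (μ l) = 1 := by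
    rw [← map_one (MonoidHom.mulSingle (fun _ : Λ => (ZMod p)ˣ) (ε 0)), ← hμ, map_prod]; rfl
  rwa [prod_mul_distrib, prod_inv_distrib, univ_prod_mulSingle, h2, inv_one, mul_one] at h1

end K

section Q
variable (ι) (ε : ZMod p ↪ Λ)

/-- A block of `p ^ 2` points. -/
def blk : ZMod p × ZMod p ↪ Ω := ((Function.Embedding.refl _).prodMap ε).trans ι

/-- Translations on the block of `p ^ 2` points, and the base group elsewhere. -/
def Qd : Subgroup (Perm Ω) where
  carrier := {g | ∃ (w : ZMod p × ZMod p) (f : Λ → ZMod p), (∀ z, g (blk ι ε z) = blk ι ε (z + w)) ∧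
    (∀ a l, l ∉ Set.range ε → g (ι (a, l)) = ι (a + f l, l)) ∧ ∀ x, x ∉ Set.range ι → g x = x}
  one_mem' := ⟨0, 0, by simp, by simp, by simp⟩
  mul_mem' := by
    rintro a b ⟨w, f, h1, h2, h3⟩ ⟨w', f', h1', h2', h3'⟩
    exact ⟨w' + w, f' + f, fun z => by simp [h1, h1', add_assoc], fun a l hl => by simp [h2 _ _ hl, h2' _ _ hl, add_assoc],
      fun x hx => by simp [h3 _ hx, h3' _ hx]⟩
  inv_mem' := by
    rintro a ⟨w, f, h1, h2, h3⟩
    exact ⟨-w, -f, fun z => by simp [Equiv.symm_apply_eq, h1], fun a l hl => by simp [Equiv.symm_apply_eq, h2 _ _ hl],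
      fun x hx => by simp [Equiv.symm_apply_eq, h3 _ hx]⟩

variable {ι ε}

omit hp [Finite Ω] in
theorem blk_apply (a x : ZMod p) : blk ι ε (a, x) = ι (a, ε x) := rfl

omit hp [Finite Ω] in
theorem notMem_blk {a : ZMod p} {l : Λ} (hl : l ∉ Set.range ε) : ι (a, l) ∉ Set.range (blk ι ε) :=
  fun ⟨z, e⟩ => hl ⟨z.2, congrArg Prod.snd (ι.injective e)⟩

omit hp [Finite Ω] in
theorem notMem_blk' {x : Ω} (hx : x ∉ Set.range ι) : x ∉ Set.range (blk ι ε) := fun ⟨_, e⟩ => hx ⟨_, e⟩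

omit [Finite Ω] in
theorem Qd_le {Q : Subgroup (Perm Λ)} (hγ : (Equiv.addRight (1 : ZMod p)).viaEmbedding ε ∈ Q) : Qd ι ε ≤ WR ι Q := by
  classical
  rintro g ⟨w, f, h1, h2, h3⟩
  refine ⟨fun l => if l ∈ Set.range ε then w.1 else f l, (Equiv.addRight w.2).viaEmbedding ε, ?_,
    eq_wE ι (fun a l => ?_) h3⟩
  · have := Q.pow_mem hγ w.2.val
    rwa [← viaEmbeddingHom_apply, ← map_pow, Equiv.nsmul_addRight, nsmul_one, ZMod.natCast_zmod_val] at this
  · by_cases hl : l ∈ Set.range ε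
    · rw [if_pos hl]
      obtain ⟨x, rfl⟩ := hl
      rw [viaEmbedding_apply]
      exact h1 (a, x)
    · rw [if_neg hl, viaEmbedding_apply_of_notMem _ _ _ hl, h2 _ _ hl]

theorem pCen_Qd [Finite Λ] (hr : Subsingleton {x // x ∉ Set.range ι}) (H : Subgroup (Perm Ω)) : PCen p H (Qd ι ε) := by
  classical
  intro c _ _ h
  obtain ⟨f, σ, rfl⟩ := exists_wE_of_comm hr (h _ ⟨(1, 0), fun _ => 1, fun ⟨a, x⟩ => by simp [blk_apply, wE_apply],
    fun a l _ => wE_apply .., fun x => wE_apply_of_notMem _ _ _⟩)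
  have h1 : ∀ l, l ∉ Set.range ε → σ l = l := fun l hl => fix_of_comm (h _ ⟨0, Pi.single l 1, fun ⟨a, x⟩ => by
    have : ε x ≠ l := fun e => hl ⟨_, e⟩
    simp [blk_apply, wE_apply, this], fun a l _ => wE_apply ..,
    fun x => wE_apply_of_notMem _ _ _⟩)
  obtain ⟨x, hx⟩ : σ (ε 0) ∈ Set.range ε := by_contra fun e => e ⟨0, (σ.injective (h1 _ e)).symm⟩
  refine ⟨(f (ε 0), x), f, fun z => ?_, fun a l hl => by rw [wE_apply, h1 l hl], fun x => wE_apply_of_notMem _ _ _⟩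
  have := congrArg (· (blk ι ε 0)) (h ((Equiv.addRight z).viaEmbedding (blk ι ε)) ⟨z, 0, fun _ => viaEmbedding_apply ..,
    fun a l hl => by simp [viaEmbedding_apply_of_notMem _ _ _ (notMem_blk hl)],
    fun x hx => viaEmbedding_apply_of_notMem _ _ _ (notMem_blk' hx)⟩)
  have h2 : wE ι f σ (blk ι ε 0) = blk ι ε (f (ε 0), x) := by
    rw [blk_apply (f _), hx, ← zero_add (f _)]; exact wE_apply ..
  simpa [viaEmbedding_apply, h2, add_comm z] using this

theorem lin_mem_normalizer {e : Perm (ZMod p × ZMod p)} (he : ∀ z w, e (z + w) = e z + e w) :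
    e.viaEmbedding (blk ι ε) ∈ Subgroup.normalizer (Qd ι ε : Set (Perm Ω)) := Subgroup.mem_normalizer_fintype <| by
  rintro g ⟨w, f, h1, h2, h3⟩
  rw [← viaEmbeddingHom_apply, ← map_inv, viaEmbeddingHom_apply, viaEmbeddingHom_apply]
  exact ⟨e w, f, fun z => by simp [viaEmbedding_apply, h1, he],
    fun a l hl => by simp [viaEmbedding_apply_of_notMem _ _ _ (notMem_blk hl), h2 _ _ hl],
    fun x hx => by simp [viaEmbedding_apply_of_notMem _ _ _ (notMem_blk' hx), h3 _ hx]⟩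

omit [Finite Ω] in
theorem pow_eq_one_of_add {G : Type*} [Group G] (u : ZMod p → G) (h : ∀ s t, u (s + t) = u s * u t) (t : ZMod p) :
    u t ^ p = 1 := by
  have := map_nsmul (AddMonoidHom.mk' (fun x => Additive.ofMul (u x)) h) p t
  rw [nsmul_eq_mul, ZMod.natCast_self, zero_mul, map_zero] at this
  exact this.symm

/-- Upper transvections. -/
def tU (t : ZMod p) : Perm (ZMod p × ZMod p) :=
  ⟨fun z => (z.1 + t * z.2, z.2), fun z => (z.1 - t * z.2, z.2), fun z => by simp, fun z => by simp⟩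

/-- Lower transvections. -/
def tV (t : ZMod p) : Perm (ZMod p × ZMod p) :=
  ⟨fun z => (z.1, z.2 + t * z.1), fun z => (z.1, z.2 - t * z.1), fun z => by simp, fun z => by simp⟩

theorem exists_diag [Fintype Ω] [DecidableEq Ω] [Fintype Λ] (ho : Odd p) (t : (ZMod p)ˣ) : ∃ δ μ, ∏ l, μ l = t ∧
    wE ι 0 δ * mon ι μ ∈ pCl p (normalizerIn (alternatingGroup Ω) (Qd ι ε)) := by
  classical
  have key : ∀ u : ZMod p → Perm (ZMod p × ZMod p), (∀ s t, u (s + t) = u s * u t) →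
      (∀ t z w, u t (z + w) = u t z + u t w) →
      ∀ t, u t ∈ (pCl p (normalizerIn (alternatingGroup Ω) (Qd ι ε))).comap (viaEmbeddingHom (blk ι ε)) := by
    intro u h1 h2 t
    have : viaEmbeddingHom (blk ι ε) (u t) ^ p = 1 := by rw [← map_pow, pow_eq_one_of_add u h1, map_one]
    exact mem_pCl ⟨mem_alt_of_pow ho this, lin_mem_normalizer (h2 t)⟩ (k := 1) (by rwa [pow_one])
  have hU := key tU (fun s t => Equiv.ext fun z => by simp [tU]; ring) fun t z w => by simp [tU]; ring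
  have hV := key tV (fun s t => Equiv.ext fun z => by simp [tV]; ring) fun t z w => by simp [tV]; ring
  refine ⟨(t⁻¹.mulLeft).viaEmbedding ε, fun l => if l ∈ univ.map ε then t else 1, ?_, ?_⟩
  · rw [prod_ite_mem, univ_inter, prod_const, card_map, card_univ, ZMod.card]
    exact Units.ext (by simp [ZMod.pow_card])
  · have := mul_mem (mul_mem (mul_mem (mul_mem (mul_mem (hU t) (hV (-t⁻¹))) (hU t)) (hU (-1))) (hV 1)) (hU (-1))
    rw [Subgroup.mem_comap, viaEmbeddingHom_apply] at this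
    convert this using 1
    refine perm_ext (ι := ι) (fun a l => ?_) fun x hx => by
      rw [viaEmbedding_apply_of_notMem _ _ _ (notMem_blk' hx), Perm.mul_apply, mon_apply_of_notMem _ hx,
        wE_apply_of_notMem _ _ _ hx]
    by_cases hl : l ∈ Set.range ε
    · obtain ⟨x, rfl⟩ := hl
      rw [← blk_apply, viaEmbedding_apply, blk_apply, Perm.mul_apply, mon_apply, wE_apply, viaEmbedding_apply, ← blk_apply]
      rw [if_pos (mem_map_of_mem ε (mem_univ x))]
      have := t.mul_inv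
      refine congrArg _ (Prod.ext ?_ ?_) <;>
        simp only [tU, tV, Perm.mul_apply, Equiv.coe_fn_mk, Pi.zero_apply, Units.mulLeft_apply]
      · linear_combination (t * a - x : ZMod p) * this
      · linear_combination a * this
    · rw [viaEmbedding_apply_of_notMem _ _ _ (notMem_blk hl), Perm.mul_apply, mon_apply, wE_apply,
        viaEmbedding_apply_of_notMem _ _ _ hl, if_neg (by simpa using hl), Units.val_one, one_mul, Pi.zero_apply, add_zero]

end Q

theorem mem_goodN [Fintype Ω] [DecidableEq Ω] [Fintype Λ] [DecidableEq Λ] (ho : Odd p) (ε : ZMod p ↪ Λ)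
    (hr : Subsingleton {x // x ∉ Set.range ι}) {Q : Subgroup (Perm Λ)}
    (hγ : (Equiv.addRight (1 : ZMod p)).viaEmbedding ε ∈ Q) (hW : WR ι Q ≤ alternatingGroup Ω)
    (hT : SylIn p (WR ι Q ⊓ alternatingGroup Ω) (alternatingGroup Ω)) {g : Perm Ω} (hg : g ∈ alternatingGroup Ω)
    (hgT : g ∈ Subgroup.normalizer (WR ι Q ⊓ alternatingGroup Ω : Subgroup (Perm Ω))) : g ∈ goodN p hT.le := by
  have hA : WR ι ⊥ ≤ WR ι Q ⊓ alternatingGroup Ω := le_inf (WR_mono ι bot_le) ((WR_mono ι bot_le).trans hW)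
  have hD : Qd ι ε ≤ WR ι Q ⊓ alternatingGroup Ω := le_inf (Qd_le hγ) ((Qd_le hγ).trans hW)
  obtain ⟨f, σ, μ, rfl⟩ := exists_mon hr hA (inf_le_left.trans (WR_mono ι le_top)) hgT
  obtain ⟨δ, ν, hν, hd⟩ := exists_diag (ι := ι) (ε := ε) ho (∏ l, μ l)
  have hdN := mul_mem (wE_mem_normalizer (ι := ι) 0 δ) (mon_mem_normalizer ν)
  have hdA := mem_normalizerIn.1 (pCl_le _ _ hd)
  have h1 : wE ι 0 δ * mon ι ν ∈ goodAt p hT.le hA := mem_goodAt_of_le (hA := sup_le hD hA) le_sup_right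
    (mem_goodAt_of_centric hT _ le_sup_left (pCen_Qd hr _) (pCl_le_goodAt hT hD hd) hdA.1
      (Subgroup.normalizer_inf_normalizer_le_normalizer_sup _ _ ⟨hdA.2, hdN⟩)) hdN
  have h2 : mon ι (ν⁻¹ * μ) ∈ KK ι := mon_mem_KK ho ε (by simp [prod_mul_distrib, hν])
  have h3 : wE ι (f ∘ ⇑δ⁻¹) 1 ∈ KK ι := mem_KK ho (wE_mem_normalizer _ _) (wE_base_pow_char ..)
  have e : wE ι f σ * mon ι μ =
      wE ι 0 (σ * δ⁻¹) * (wE ι (f ∘ ⇑δ⁻¹) 1 * (wE ι 0 δ * mon ι ν) * mon ι (ν⁻¹ * μ)) := by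
    rw [map_mul, map_inv, mul_assoc, mul_assoc, mul_inv_cancel_left, ← mul_assoc, ← mul_assoc, wE_mul, wE_mul]
    simp [Function.comp_def]
  have h4 : σ * δ⁻¹ ∈ alternatingGroup Λ := by
    rw [e, Subgroup.mul_mem_cancel_right _ (mul_mem (mul_mem (pCl_le _ _ h3).1 hdA.1) (pCl_le _ _ h2).1), mem_alternatingGroup,
      sign_wE_top, ZMod.card] at hg
    rcases Int.units_eq_one_or (sign (σ * δ⁻¹)) with h | h
    · exact h
    · rw [h, ho.neg_one_pow] at hg
      exact absurd hg (by decide)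
  have h5 := mem_goodAt_of_centric hT le_rfl hA (pCen_base hr _) (e ▸ mul_mem (pCl_le_goodAt hT hA (top_mem_KK ho ε h4))
    (mul_mem (mul_mem (pCl_le_goodAt hT hA h3) h1) (pCl_le_goodAt hT hA h2))) hg hgT
  exact ⟨h5.1, h5.2⟩

theorem simple_odd {n : ℕ} (ho : Odd p) (hnp : p ^ 2 ≤ n) (hb : n % p ≤ 1) (S : Sylow p (alternatingGroup (Fin n))) :
    (Cfsg.groupFusionSystem (S : Subgroup (alternatingGroup (Fin n)))).IsSimple p := by
  obtain ⟨ι⟩ := exists_emb (n := n) p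
  have h1 : p ≤ n / p := (Nat.le_div_iff_mul_le hp.out.pos).2 (by rwa [← sq])
  have h3 : 3 ≤ Nat.card (Fin (n / p)) := by
    have := hp.out.two_le
    obtain ⟨k, hk⟩ := ho
    simp; omega
  obtain ⟨ε⟩ : Nonempty (ZMod p ↪ Fin (n / p)) := Function.Embedding.nonempty_of_card_le (by simpa)
  obtain ⟨Q, hQ, hγ⟩ := exists_sylow_mem (p := p) (cyc_pow ε)
  have hΛ : Nat.card (Fin (n / p)) = Nat.card (Fin n) / p := by simp
  have hT := sylIn_WR (ι := ι) hΛ hQ
  have hr : Subsingleton {x // x ∉ Set.range ι} :=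
    Finite.card_le_one_iff_subsingleton.1 (by rw [card_compl_range ι hΛ]; simpa)
  have hW : WR ι Q ≤ alternatingGroup (Fin n) := fun x hx => by
    obtain ⟨k, hk⟩ := (isSylowIn_WR ι hΛ hQ).2.1 ⟨x, hx⟩
    have := congrArg (fun y => sign y.1) hk
    rcases Int.units_eq_one_or (sign x) with h | h
    · exact h
    · simp only [SubmonoidClass.coe_pow, map_pow, h, (ho.pow (n := k)).neg_one_pow, OneMemClass.coe_one, map_one] at this
      exact absurd this (by decide)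
  refine isSimple_of_surjective hT (isSimple_ofSubgroup hT (fun e => ?_) (scFull_odd ho hΛ h3 hQ)
    fun g hg hgT => mem_goodN ho ε hr hγ hW hT hg hgT) (MonoidHom.id _) Function.surjective_id (fun _ _ e => e) S
  have : wE ι (fun _ => 1) 1 ∈ WR ι Q ⊓ alternatingGroup (Fin n) :=
    ⟨wE_mem_WR.2 Q.one_mem, hW (wE_mem_WR.2 Q.one_mem)⟩
  rw [e, Subgroup.mem_bot, wE_eq_one] at this
  exact one_ne_zero (congrFun this.1 (ε 0))

end Alt

end CL.Fus
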